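import Mathlib
import Cfsg.Agent.H193.OrthCount

/-!
# Number of classes of elements of odd prime order in `O_{2m+1}(q)`, `O⁺_{2m}(q)`, `O⁻_{2m}(q)`
-/

set_option autoImplicit false

namespace Cfsg.Agent.H193.OrthFinal

open Cfsg.Agent.H193.ClassCount Cfsg.Agent.H193.RealForm Cfsg.Agent.H193.OrthCount
open Cfsg.Agent.LieClassical.OrthCore Cfsg.Agent.GenOrth Cfsg.Agent.LieClassical.OmegaReindex

variable {F : Type*} [Field F] [Fintype F] {p q : ℕ} [Fact p.Prime] [CharP F p]

theorem orth_odd (hF : Fintype.card F = q) (hq : Odd q) (m r i t : ℕ) (hr : r.Prime) (hr2 : r ≠ 2) (hrp : r ≠ p)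
    (hi : i = orderOf (q : ZMod r)) (ht : t * i = r - 1) :
    Nat.card {C : ConjClasses ↥(Cfsg.isometryGroup F (Cfsg.quadFormOdd m F)) //
      ∃ g : ↥(Cfsg.isometryGroup F (Cfsg.quadFormOdd m F)), ConjClasses.mk g = C ∧ orderOf g = r} =
      if Odd i then Nat.choose (m / i + t / 2) (t / 2) - 1 else Nat.choose ((2 * m + 1) / i + t) t - 1 := by
  have : Fact r.Prime := ⟨hr⟩
  obtain ⟨ζ, hζ⟩ := exists_root (F := F) hr (cast_ne_zero (p := p) hr hrp)
  obtain ⟨w, hw⟩ := exists_unit (natCast_card_ne_zero (F := F) (p := p) hr hrp)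
  have hiw : orderOf w = i := by rw [hi, ← hF, ← hw, orderOf_units]
  have hi0 : 0 < i := hiw ▸ orderOf_pos w
  have h2 : (2 : F) ≠ 0 := by
    intro h
    have hc : CharP F 2 := CharTwo.of_one_ne_zero_of_two_eq_zero one_ne_zero h
    have := FiniteField.even_card_of_char_two (F := F) (CharP.ringChar_of_prime_eq_zero Nat.prime_two (by exact_mod_cast h))
    rw [hF] at this
    rw [Nat.odd_iff] at hq
    omega
  rw [← coe_quadOdd, orth_count hζ w hw hr2 (cast_ne_zero (p := p) hr hrp) (quadOdd m F)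
    (nondeg_of_nondegenerate (quadOdd_nondegenerate h2)) (2 * m + 1)
    (by simp only [Fintype.card_sum, Fintype.card_fin, Fintype.card_unit]; omega) False
    (fun a ha hs hn h0 _ => by
      exfalso
      have h1 := even_sum hr2 hs h0
      rw [hn, Nat.even_iff] at h1
      omega), orderOf_gen w hr2, hiw]
  rw [if_neg not_false, Nat.sub_zero]
  split_ifs with hodd
  · have h3 : (r - 1) / (2 * i) = t / 2 := by
      rw [← ht, mul_comm t i, mul_comm 2 i, Nat.mul_div_mul_left _ _ hi0]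
    have h4 : (2 * m + 1) / (2 * i) = m / i := by
      rw [← Nat.div_div_eq_div_mul]
      congr 1
      omega
    rw [h3, h4]
  · rw [← ht, Nat.mul_div_cancel _ hi0]

theorem orth_plus (hF : Fintype.card F = q) (m r i t : ℕ) (hm : 1 ≤ m) (hr : r.Prime) (hr2 : r ≠ 2) (hrp : r ≠ p)
    (hi : i = orderOf (q : ZMod r)) (ht : t * i = r - 1) :
    Nat.card {C : ConjClasses ↥(Cfsg.isometryGroup F (Cfsg.quadFormPlus m F)) //
      ∃ g : ↥(Cfsg.isometryGroup F (Cfsg.quadFormPlus m F)), ConjClasses.mk g = C ∧ orderOf g = r} =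
      if Odd i then Nat.choose (m / i + t / 2) (t / 2) - 1
      else Nat.choose (2 * m / i + t) t - 1 -
        (if i ∣ 2 * m ∧ Odd (2 * m / i) then Nat.choose (2 * m / i + t - 1) (t - 1) else 0) := by
  have : Fact r.Prime := ⟨hr⟩
  obtain ⟨ζ, hζ⟩ := exists_root (F := F) hr (cast_ne_zero (p := p) hr hrp)
  obtain ⟨w, hw⟩ := exists_unit (natCast_card_ne_zero (F := F) (p := p) hr hrp)
  have hiw : orderOf w = i := by rw [hi, ← hF, ← hw, orderOf_units]
  have hi0 : 0 < i := hiw ▸ orderOf_pos w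
  have ht0 : 0 < t := by
    rcases Nat.eq_zero_or_pos t with h | h
    · rw [h, zero_mul] at ht
      have := hr.two_le
      omega
    · exact h
  rw [← coe_quadPlus, orth_count hζ w hw hr2 (cast_ne_zero (p := p) hr hrp) (quadPlus m F)
    (nondeg_of_nondegenerate quadPlus_nondegenerate) (2 * m)
    (by simp only [Fintype.card_sum, Fintype.card_fin]; omega) (¬ Odd i ∧ Odd (2 * m / i))
    (fun a ha hs hn h0 _ => by
      rw [plus_full hζ w hw hr2 hm ha hs hn h0, hiw]), orderOf_gen w hr2, hiw]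
  by_cases hodd : Odd i
  · rw [if_pos hodd, if_pos hodd, if_neg (fun h => h.1 hodd), Nat.sub_zero]
    have h3 : (r - 1) / (2 * i) = t / 2 := by
      rw [← ht, mul_comm t i, mul_comm 2 i, Nat.mul_div_mul_left _ _ hi0]
    rw [h3, Nat.mul_div_mul_left _ _ two_pos]
  · rw [if_neg hodd, if_neg hodd, ← ht, Nat.mul_div_cancel _ hi0, Nat.sub_right_comm]
    congr 1
    by_cases h1 : i ∣ 2 * m
    · by_cases h2 : Odd (2 * m / i)
      · rw [if_pos ⟨hodd, h2⟩, if_pos h1, if_pos ⟨h1, h2⟩, add_comm t]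
        exact Nat.choose_symm_of_eq_add (by generalize 2 * m / i = N; omega)
      · rw [if_neg (fun h => h2 h.2), if_neg (fun h => h2 h.2)]
    · rw [if_neg h1, if_neg (fun h : i ∣ 2 * m ∧ _ => h1 h.1), ite_self]

theorem orth_minus (hF : Fintype.card F = q) (m r i t : ℕ) (hm : 1 ≤ m) (a c : F)
    (hac : ∀ z₁ z₂ : F, z₁ ^ 2 + a * z₁ * z₂ + c * z₂ ^ 2 = 0 → z₁ = 0 ∧ z₂ = 0)
    (hr : r.Prime) (hr2 : r ≠ 2) (hrp : r ≠ p)
    (hi : i = orderOf (q : ZMod r)) (ht : t * i = r - 1) :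
    Nat.card {C : ConjClasses ↥(Cfsg.isometryGroup F (Cfsg.quadFormMinus (m - 1) F a c)) //
      ∃ g : ↥(Cfsg.isometryGroup F (Cfsg.quadFormMinus (m - 1) F a c)), ConjClasses.mk g = C ∧ orderOf g = r} =
      if Odd i then Nat.choose (m / i + t / 2) (t / 2) - 1 -
        (if i ∣ m then Nat.choose (m / i + t / 2 - 1) (t / 2 - 1) else 0)
      else Nat.choose (2 * m / i + t) t - 1 -
        (if i ∣ 2 * m ∧ Even (2 * m / i) then Nat.choose (2 * m / i + t - 1) (t - 1) else 0) := by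
  have : Fact r.Prime := ⟨hr⟩
  obtain ⟨ζ, hζ⟩ := exists_root (F := F) hr (cast_ne_zero (p := p) hr hrp)
  obtain ⟨w, hw⟩ := exists_unit (natCast_card_ne_zero (F := F) (p := p) hr hrp)
  have hiw : orderOf w = i := by rw [hi, ← hF, ← hw, orderOf_units]
  have hi0 : 0 < i := hiw ▸ orderOf_pos w
  have ht0 : 0 < t := by
    rcases Nat.eq_zero_or_pos t with h | h
    · rw [h, zero_mul] at ht
      have := hr.two_le
      omega
    · exact h
  rw [← coe_quadMinus, orth_count hζ w hw hr2 (cast_ne_zero (p := p) hr hrp) (quadMinus (m - 1) F a c)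
    (nondeg_of_nondegenerate (quadMinus_nondegenerate hac)) (2 * m)
    (by simp only [Fintype.card_sum, Fintype.card_fin]; omega) (Odd i ∨ Even (2 * m / i))
    (fun a ha hs hn h0 _ => by
      rw [minus_full hζ w hw hr2 hm hac ha hs hn h0, hiw]), orderOf_gen w hr2, hiw]
  by_cases hodd : Odd i
  · have hte : 1 ≤ t / 2 := by
      have h5 : Even (r - 1) := by
        obtain ⟨k, hk⟩ := hr.odd_of_ne_two hr2
        exact ⟨k, by omega⟩
      rw [← ht, Nat.even_mul] at h5
      obtain ⟨s, hs⟩ := h5.resolve_right (fun h => (Nat.not_even_iff_odd.2 hodd) h)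
      omega
    have h3 : (r - 1) / (2 * i) = t / 2 := by
      rw [← ht, mul_comm t i, mul_comm 2 i, Nat.mul_div_mul_left _ _ hi0]
    rw [if_pos hodd, if_pos hodd, if_pos (Or.inl hodd), h3, Nat.mul_div_mul_left _ _ two_pos, Nat.sub_right_comm]
    congr 1
    by_cases h1 : i ∣ m
    · rw [if_pos h1, if_pos (Nat.mul_dvd_mul_left 2 h1), add_comm (t / 2)]
      exact Nat.choose_symm_of_eq_add (by generalize m / i = N; omega)
    · rw [if_neg h1, if_neg (fun h => h1 (Nat.dvd_of_mul_dvd_mul_left two_pos h))]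
  · rw [if_neg hodd, if_neg hodd, ← ht, Nat.mul_div_cancel _ hi0, Nat.sub_right_comm]
    congr 1
    by_cases h1 : i ∣ 2 * m
    · by_cases h2 : Even (2 * m / i)
      · rw [if_pos (Or.inr h2), if_pos h1, if_pos ⟨h1, h2⟩, add_comm t]
        exact Nat.choose_symm_of_eq_add (by generalize 2 * m / i = N; omega)
      · rw [if_neg (fun h => h.elim hodd h2), if_neg (fun h => h2 h.2)]
    · rw [if_neg h1, if_neg (fun h : i ∣ 2 * m ∧ _ => h1 h.1), ite_self]

end Cfsg.Agent.H193.OrthFinal
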