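import Mathlib
import Cfsg.Agent.H193.Count

/-!
# Rotation orbits on tuples of multiplicities

`card_orbits` : the number of orbits of the rotation on the `r`-tuples of natural numbers with sum `n` and all
entries different from `n`.
-/

set_option autoImplicit false

namespace Cfsg.Agent.H193.Shift

open Cfsg.Agent.H193.Count

variable (r n : ℕ) [Fact r.Prime]

/-- tuples with sum `n` and no entry equal to `n` -/
def T : Type := {a : ZMod r → ℕ // ∑ c, a c = n ∧ ∀ c, a c ≠ n}

variable {r n}

/-- constructor -/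
def mkT (a : ZMod r → ℕ) (h1 : ∑ c, a c = n) (h2 : ∀ c, a c ≠ n) : T r n := ⟨a, h1, h2⟩

theorem sum_shift (a : ZMod r → ℕ) (s : ZMod r) : ∑ c, a (c - s) = ∑ c, a c :=
  Fintype.sum_equiv (Equiv.subRight s) _ _ fun _ => rfl

instance : MulAction (Multiplicative (ZMod r)) (T r n) where
  smul s a := ⟨fun c => a.1 (c - s.toAdd), by rw [sum_shift]; exact a.2.1, fun c => a.2.2 _⟩
  one_smul a := Subtype.ext (funext fun c => by
    show a.1 (c - (1 : Multiplicative (ZMod r)).toAdd) = _
    rw [toAdd_one, sub_zero])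
  mul_smul s t a := Subtype.ext (funext fun c => by
    show a.1 (c - (s * t).toAdd) = a.1 (c - s.toAdd - t.toAdd)
    rw [toAdd_mul, sub_sub])

theorem smul_val (s : Multiplicative (ZMod r)) (a : T r n) (c : ZMod r) : (s • a).1 c = a.1 (c - s.toAdd) := rfl

instance : Finite (T r n) := by
  have := finite_inv (1 : (ZMod r)ˣ) n
  exact Finite.of_injective (fun a : T r n =>
    (⟨a.1, fun c => by rw [Units.val_one, one_mul], a.2.1⟩ : {a : ZMod r → ℕ // Inv 1 a ∧ ∑ c, a c = n}))
    fun a b h => Subtype.ext (by have h1 := congrArg Subtype.val h; exact h1)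

/-- the tuple with the only entry `n` at `d` -/
def del (n : ℕ) (d : ZMod r) : ZMod r → ℕ := fun c => if c = d then n else 0

theorem sum_del (d : ZMod r) : ∑ c, del n d c = n := by
  simp [del]

theorem eq_del {a : ZMod r → ℕ} (ha : ∑ c, a c = n) {d : ZMod r} (hd : a d = n) : a = del n d := by
  funext c
  unfold del
  split_ifs with h
  · rw [h, hd]
  · have h1 := Finset.add_sum_erase Finset.univ a (Finset.mem_univ d)
    rw [ha, hd] at h1
    have h2 : ∑ c ∈ Finset.univ.erase d, a c = 0 := by omega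
    exact (Finset.sum_eq_zero_iff.1 h2) c (Finset.mem_erase.2 ⟨h, Finset.mem_univ _⟩)

theorem card_T (hn : 1 ≤ n) : Nat.card (T r n) = (n + r - 1).choose (r - 1) - r := by
  classical
  have hr : r.Prime := Fact.out
  have h1 := card_inv (1 : (ZMod r)ˣ) n
  rw [orderOf_one, Nat.div_one, Nat.div_one] at h1
  have h2 : n + (r - 1) = n + r - 1 := by have := hr.two_le; omega
  rw [h2] at h1
  have hfin : ({a : ZMod r → ℕ | Inv 1 a ∧ ∑ c, a c = n}).Finite := finite_inv (1 : (ZMod r)ˣ) n
  have h3 : Nat.card (T r n) = ({a : ZMod r → ℕ | Inv 1 a ∧ ∑ c, a c = n} \ Set.range (del (r := r) n)).ncard := by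
    refine Nat.card_congr (Equiv.subtypeEquivRight fun a => ?_)
    constructor
    · rintro ⟨h4, h5⟩
      refine ⟨⟨fun c => by rw [Units.val_one, one_mul], h4⟩, ?_⟩
      rintro ⟨d, rfl⟩
      exact h5 d (by simp [del])
    · rintro ⟨⟨-, h4⟩, h5⟩
      exact ⟨h4, fun c hc => h5 ⟨c, (eq_del h4 hc).symm⟩⟩
  have h4 : Set.range (del (r := r) n) ⊆ {a : ZMod r → ℕ | Inv 1 a ∧ ∑ c, a c = n} := by
    rintro _ ⟨d, rfl⟩
    exact ⟨fun c => by rw [Units.val_one, one_mul], sum_del d⟩
  rw [h3, Set.ncard_sdiff h4 (Set.toFinite _)]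
  have h5 : (Set.range (del (r := r) n)).ncard = r := by
    rw [← Nat.card_coe_set_eq, Nat.card_range_of_injective, Nat.card_eq_fintype_card, ZMod.card]
    intro d e hde
    by_contra hne
    have := congrFun hde d
    simp only [del, if_true, if_neg hne] at this
    omega
  rw [h5]
  congr 1

theorem card_fixedBy (hn : 1 ≤ n) {s : Multiplicative (ZMod r)} (hs : s ≠ 1) :
    Nat.card (MulAction.fixedBy (T r n) s) = if r ∣ n then 1 else 0 := by
  classical
  have hr : r.Prime := Fact.out
  have hs' : s.toAdd ≠ 0 := fun h => hs (by rw [← ofAdd_toAdd s, h, ofAdd_zero])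
  have hconst : ∀ a ∈ MulAction.fixedBy (T r n) s, ∀ c, a.1 c = a.1 0 := by
    intro a ha
    have h1 : ∀ c, a.1 (c - s.toAdd) = a.1 c := fun c => by
      rw [← smul_val, MulAction.mem_fixedBy.1 ha]
    have h2 : ∀ (k : ℕ) c, a.1 (c - k * s.toAdd) = a.1 c := by
      intro k
      induction k with
      | zero => intro c; simp
      | succ k ih =>
        intro c
        rw [← ih c, ← h1 (c - k * s.toAdd)]
        exact congrArg a.1 (by push_cast; ring)
    intro c
    obtain ⟨k, hk⟩ : ∃ k : ℕ, (k : ZMod r) = c * (s.toAdd)⁻¹ := ⟨(c * (s.toAdd)⁻¹).val, ZMod.natCast_zmod_val _⟩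
    rw [← h2 k c, hk, mul_assoc, inv_mul_cancel₀ hs', mul_one, sub_self]
  split_ifs with hdvd
  · obtain ⟨k, hk⟩ := hdvd
    have hk' : ∀ c : ZMod r, (fun _ : ZMod r => k) c ≠ n := by
      intro c (h : k = n)
      rw [h] at hk
      have h1 : 1 * n < r * n := Nat.mul_lt_mul_of_pos_right hr.one_lt hn
      omega
    have hsum : ∑ c : ZMod r, (fun _ => k) c = n := by
      rw [Finset.sum_const, Finset.card_univ, ZMod.card, smul_eq_mul, hk]
    rw [Nat.card_eq_one_iff_unique]
    refine ⟨⟨?_⟩, ⟨⟨⟨fun _ => k, hsum, hk'⟩, MulAction.mem_fixedBy.2 (Subtype.ext rfl)⟩⟩⟩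
    have key : ∀ a : T r n, a ∈ MulAction.fixedBy (T r n) s → ∀ c, a.1 c = k := by
      intro a ha c
      have h1 := a.2.1
      rw [Finset.sum_congr rfl fun c _ => hconst a ha c, Finset.sum_const, Finset.card_univ, ZMod.card, smul_eq_mul]
        at h1
      rw [hconst a ha c]
      exact Nat.eq_of_mul_eq_mul_left hr.pos (h1.trans hk)
    rintro ⟨a, ha⟩ ⟨b, hb⟩
    exact Subtype.ext (Subtype.ext (funext fun c => by rw [key a ha, key b hb]))
  · rw [Nat.card_eq_zero]
    left
    constructor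
    rintro ⟨a, ha⟩
    apply hdvd
    have := a.2.1
    rw [Finset.sum_congr rfl fun c _ => hconst a ha c, Finset.sum_const, Finset.card_univ, ZMod.card, smul_eq_mul] at this
    exact ⟨_, this.symm⟩

/-- **The number of rotation orbits.** -/
theorem card_orbits (hn : 1 ≤ n) :
    Nat.card (Quotient (MulAction.orbitRel (Multiplicative (ZMod r)) (T r n))) =
      ((n + r - 1).choose (r - 1) - r - (if r ∣ n then 1 else 0)) / r + (if r ∣ n then 1 else 0) := by
  classical
  have hr : r.Prime := Fact.out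
  have := Fintype.ofFinite (T r n)
  have := Fintype.ofFinite (Quotient (MulAction.orbitRel (Multiplicative (ZMod r)) (T r n)))
  have h1 := MulAction.sum_card_fixedBy_eq_card_orbits_mul_card_group (Multiplicative (ZMod r)) (T r n)
  rw [← Finset.add_sum_erase Finset.univ _ (Finset.mem_univ (1 : Multiplicative (ZMod r)))] at h1
  have h2 : ∑ x ∈ (Finset.univ : Finset (Multiplicative (ZMod r))).erase 1, Fintype.card (MulAction.fixedBy (T r n) x) =
      (r - 1) * (if r ∣ n then 1 else 0) := by
    rw [Finset.sum_congr rfl fun x hx => by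
      rw [← Nat.card_eq_fintype_card, card_fixedBy hn (Finset.mem_erase.1 hx).1], Finset.sum_const,
      Finset.card_erase_of_mem (Finset.mem_univ _), Finset.card_univ, Fintype.card_multiplicative, ZMod.card,
      smul_eq_mul]
  have h3 : Fintype.card (MulAction.fixedBy (T r n) (1 : Multiplicative (ZMod r))) = (n + r - 1).choose (r - 1) - r := by
    rw [← card_T hn, ← Nat.card_eq_fintype_card]
    refine Nat.card_congr ?_
    rw [MulAction.fixedBy_one_eq_univ]
    exact Equiv.Set.univ _
  rw [h2, h3, Fintype.card_multiplicative, ZMod.card, ← Nat.card_eq_fintype_card] at h1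
  obtain ⟨f, hf⟩ : ∃ f, f = (if r ∣ n then 1 else 0 : ℕ) := ⟨_, rfl⟩
  rw [← hf] at h1 ⊢
  generalize (n + r - 1).choose (r - 1) - r = A at h1 ⊢
  generalize Nat.card (Quotient (MulAction.orbitRel (Multiplicative (ZMod r)) (T r n))) = K at h1 ⊢
  obtain ⟨s, rfl⟩ : ∃ s, r = s + 1 := ⟨r - 1, by have := hr.two_le; omega⟩
  rw [Nat.add_sub_cancel] at h1
  have hs : 1 ≤ s := by have := hr.two_le; omega
  have hf01 : f = 0 ∨ f = 1 := by rw [hf]; split_ifs <;> simp
  rcases hf01 with h | h
  · rw [h, Nat.sub_zero, add_zero]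
    rw [h, mul_zero, add_zero] at h1
    rw [h1, Nat.mul_div_cancel _ (Nat.succ_pos s)]
  · rw [h]
    rw [h, mul_one] at h1
    obtain ⟨k, rfl⟩ : ∃ k, K = k + 1 := ⟨K - 1, by
      have : K ≠ 0 := by rintro rfl; omega
      omega⟩
    have h4 : A - 1 = k * (s + 1) := by
      have : (k + 1) * (s + 1) = k * (s + 1) + (s + 1) := by ring
      omega
    rw [h4, Nat.mul_div_cancel _ (Nat.succ_pos s)]

end Cfsg.Agent.H193.Shift
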