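import Mathlib
import Cfsg.Agent.H193.Shift

/-!
# Counting classes of elements of prime order modulo a centre of scalars
-/

set_option autoImplicit false

namespace Cfsg.Agent.H193.ProjCount

open Cfsg.Agent.H193.Shift

theorem card_eq_of_ker {S X Y : Type*} (p : S → X) (p' : S → Y) (hp : Function.Surjective p)
    (hp' : Function.Surjective p') (h : ∀ s t, p s = p t ↔ p' s = p' t) : Nat.card X = Nat.card Y := by
  have hk : Setoid.ker p = Setoid.ker p' := Setoid.ext fun s t => h s t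
  rw [← Nat.card_congr (Setoid.quotientKerEquivOfSurjective p hp),
    ← Nat.card_congr (Setoid.quotientKerEquivOfSurjective p' hp'), hk]

variable {G : Type*} [Group G]

theorem isConj_mk_iff {L : Type*} [CommGroup L] (σ : L →* G) (hcen : Subgroup.center G = σ.range) (A B : G) :
    IsConj (QuotientGroup.mk A : G ⧸ Subgroup.center G) (QuotientGroup.mk B) ↔ ∃ l, IsConj A (σ l * B) := by
  constructor
  · intro h
    obtain ⟨c, hc⟩ := isConj_iff.1 h
    obtain ⟨c, rfl⟩ := QuotientGroup.mk_surjective c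
    rw [← QuotientGroup.mk_inv, ← QuotientGroup.mk_mul, ← QuotientGroup.mk_mul] at hc
    rw [eq_comm, QuotientGroup.eq, hcen] at hc
    obtain ⟨l, hl⟩ := hc
    refine ⟨l, isConj_iff.2 ⟨c, ?_⟩⟩
    have hl' : σ l ∈ Subgroup.center G := by rw [hcen]; exact ⟨l, rfl⟩
    rw [← Subgroup.mem_center_iff.1 hl' B, hl]
    group
  · rintro ⟨l, hl⟩
    obtain ⟨c, hc⟩ := isConj_iff.1 hl
    refine isConj_iff.2 ⟨QuotientGroup.mk c, ?_⟩
    rw [← QuotientGroup.mk_inv, ← QuotientGroup.mk_mul, ← QuotientGroup.mk_mul, hc, QuotientGroup.mk_mul]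
    have h1 : (QuotientGroup.mk (σ l) : G ⧸ Subgroup.center G) = 1 := by
      rw [QuotientGroup.eq_one_iff, hcen]; exact ⟨l, rfl⟩
    rw [h1, one_mul]

theorem proj_count [Finite G] {L : Type*} [CommGroup L] [Finite L] [IsCyclic L] (σ : L →* G)
    (hσ : Function.Injective σ) (hcen : Subgroup.center G = σ.range) {r n : ℕ} [Fact r.Prime] (hn : 1 ≤ n)
    (hrL : r ∣ Nat.card L) (z : L) (hz : orderOf z = r) (τ : G → ZMod r → ℕ)
    (h1 : ∀ A B : G, A ^ r = 1 → B ^ r = 1 → (IsConj A B ↔ τ A = τ B))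
    (h2 : ∀ A : G, A ^ r = 1 → ∀ c, τ (σ z * A) c = τ A (c - 1))
    (h3 : ∀ a : ZMod r → ℕ, (∃ A : G, A ^ r = 1 ∧ τ A = a) ↔ ∑ c, a c = n)
    (h4 : τ 1 0 = n)
    (h5 : ∀ c : L, (∀ d : L, d ^ r ≠ c) → ∀ A B : G, A ^ r = σ c → B ^ r = σ c → IsConj A B)
    (h6 : r ∣ n → ∀ c : L, ∃ A : G, A ^ r = σ c)
    (D : G →* L) (hD : ∀ c, D (σ c) = c ^ n) :
    Nat.card {C : ConjClasses (G ⧸ Subgroup.center G) //
      ∃ g : G ⧸ Subgroup.center G, ConjClasses.mk g = C ∧ orderOf g = r} =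
      (Nat.choose (n + r - 1) (r - 1) - r - (if r ∣ n then 1 else 0)) / r + r * (if r ∣ n then 1 else 0) := by
  classical
  have hr : r.Prime := Fact.out
  have hcomm : ∀ l (A : G), Commute (σ l) A := fun l A => by
    have hl' : σ l ∈ Subgroup.center G := by rw [hcen]; exact ⟨l, rfl⟩
    exact (Subgroup.mem_center_iff.1 hl' A).symm
  have hzr : z ^ r = 1 := by rw [← hz, pow_orderOf_eq_one]
  have htors : ∀ l : L, l ^ r = 1 → ∃ k : ℕ, l = z ^ k := by
    intro l hl
    have hcard : Nat.card (Subgroup.zpowers z) = Nat.card (powMonoidHom r : L →* L).ker := by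
      rw [Nat.card_zpowers, hz, IsCyclic.card_powMonoidHom_ker, Nat.gcd_eq_right hrL]
    have hle : Subgroup.zpowers z ≤ (powMonoidHom r : L →* L).ker := by
      rw [Subgroup.zpowers_le]
      exact hzr
    have heq := Subgroup.eq_of_le_of_card_ge hle hcard.ge
    have hmem : l ∈ Subgroup.zpowers z := by rw [heq]; exact hl
    obtain ⟨k, hk⟩ := (mem_powers_iff_mem_zpowers.2 hmem : l ∈ Submonoid.powers z)
    exact ⟨k, hk.symm⟩
  have hshift : ∀ (A : G), A ^ r = 1 → ∀ (k : ℕ) c, τ (σ (z ^ k) * A) c = τ A (c - k) := by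
    intro A hA k
    induction k with
    | zero => intro c; simp
    | succ k ih =>
      intro c
      have h7 : (σ (z ^ k) * A) ^ r = 1 := by
        rw [(hcomm _ _).mul_pow, hA, ← map_pow, ← pow_mul, mul_comm, pow_mul, hzr, one_pow, map_one, one_mul]
      rw [pow_succ', map_mul, mul_assoc, h2 _ h7, ih]
      congr 1
      push_cast; ring
  have hτ1 : ∀ k : ℕ, τ (σ (z ^ k)) k = n := fun k => by
    rw [← mul_one (σ (z ^ k)), hshift 1 (one_pow r), sub_self, h4]
  have hcentral : ∀ A : G, A ^ r = 1 → (A ∈ Subgroup.center G ↔ ∃ c, τ A c = n) := by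
    intro A hA
    constructor
    · intro h
      rw [hcen] at h
      obtain ⟨l, rfl⟩ := h
      rw [← map_pow, ← map_one σ] at hA
      obtain ⟨k, rfl⟩ := htors l (hσ hA)
      exact ⟨k, hτ1 k⟩
    · rintro ⟨c, hc⟩
      have h7 : (σ (z ^ c.val)) ^ r = 1 := by
        rw [← map_pow, ← pow_mul, mul_comm, pow_mul, hzr, one_pow, map_one]
      have h8 : τ A = τ (σ (z ^ c.val)) := by
        rw [eq_del ((h3 _).1 ⟨A, hA, rfl⟩) hc, eq_del ((h3 _).1 ⟨_, h7, rfl⟩) (d := c) (by
          have := hτ1 c.val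
          rwa [ZMod.natCast_zmod_val] at this)]
      have h9 := (h1 _ _ hA h7).2 h8
      obtain ⟨d, hd⟩ := isConj_iff.1 h9
      have h10 : A = σ (z ^ c.val) := by
        have : A = d⁻¹ * σ (z ^ c.val) * d := by rw [← hd]; group
        rw [this, mul_assoc, (hcomm _ d).eq, inv_mul_cancel_left]
      rw [h10, hcen]
      exact ⟨_, rfl⟩
  -- the two kinds
  let S1 := {A : G // A ^ r = 1 ∧ A ∉ Subgroup.center G}
  let S2 := {A : G // ∃ c : L, (∀ d : L, d ^ r ≠ c) ∧ A ^ r = σ c}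
  let q : G → ConjClasses (G ⧸ Subgroup.center G) := fun A => ConjClasses.mk (QuotientGroup.mk A)
  let X1 : Set (ConjClasses (G ⧸ Subgroup.center G)) := {C | ∃ A : G, (A ^ r = 1 ∧ A ∉ Subgroup.center G) ∧ q A = C}
  let X2 : Set (ConjClasses (G ⧸ Subgroup.center G)) := {C | ∃ A : G, (∃ c : L, (∀ d : L, d ^ r ≠ c) ∧ A ^ r = σ c) ∧ q A = C}
  have hq : ∀ A B, q A = q B ↔ ∃ l, IsConj A (σ l * B) := fun A B => by
    show ConjClasses.mk _ = ConjClasses.mk _ ↔ _
    rw [ConjClasses.mk_eq_mk_iff_isConj, isConj_mk_iff σ hcen]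
  have hpow : ∀ A B l, IsConj A (σ l * B) → ∀ x y, A ^ r = σ x → B ^ r = σ y → x = l ^ r * y := by
    intro A B l h x y hx hy
    obtain ⟨d, hd⟩ := isConj_iff.1 h
    apply hσ
    have h7 : (d * A * d⁻¹) ^ r = d * A ^ r * d⁻¹ := by rw [conj_pow]
    rw [hd, (hcomm _ _).mul_pow, ← map_pow, hy, ← map_mul, hx, ← (hcomm x d).eq, mul_inv_cancel_right] at h7
    exact h7.symm
  have hX : {C : ConjClasses (G ⧸ Subgroup.center G) |
      ∃ g : G ⧸ Subgroup.center G, ConjClasses.mk g = C ∧ orderOf g = r} = X1 ∪ X2 := by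
    ext C
    constructor
    · rintro ⟨g, rfl, hg⟩
      obtain ⟨A, rfl⟩ := QuotientGroup.mk_surjective g
      have hne : A ∉ Subgroup.center G := by
        intro h
        rw [(QuotientGroup.eq_one_iff A).2 h, orderOf_one] at hg
        exact hr.one_lt.ne hg
      have hA : A ^ r ∈ Subgroup.center G := by
        rw [← QuotientGroup.eq_one_iff, QuotientGroup.mk_pow, ← hg, pow_orderOf_eq_one]
      rw [hcen] at hA
      obtain ⟨c, hc⟩ := hA
      by_cases hcr : ∃ d : L, d ^ r = c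
      · left
        obtain ⟨d, rfl⟩ := hcr
        refine ⟨σ d⁻¹ * A, ⟨?_, ?_⟩, ?_⟩
        · rw [(hcomm _ _).mul_pow, ← map_pow, ← hc, ← map_mul, inv_pow, inv_mul_cancel, map_one]
        · intro h
          apply hne
          have h8 : σ d ∈ Subgroup.center G := by rw [hcen]; exact ⟨d, rfl⟩
          have h9 := Subgroup.mul_mem _ h8 h
          rwa [← mul_assoc, ← map_mul, mul_inv_cancel, map_one, one_mul] at h9
        · exact (hq _ _).2 ⟨d⁻¹, IsConj.refl _⟩
      · right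
        push Not at hcr
        exact ⟨A, ⟨c, hcr, hc.symm⟩, rfl⟩
    · rintro (⟨A, ⟨hA, hne⟩, rfl⟩ | ⟨A, ⟨c, hc, hA⟩, rfl⟩)
      · refine ⟨_, rfl, ?_⟩
        refine (Nat.dvd_prime hr).1 (orderOf_dvd_of_pow_eq_one ?_) |>.resolve_left ?_
        · rw [← QuotientGroup.mk_pow, hA]; rfl
        · rw [orderOf_eq_one_iff, QuotientGroup.eq_one_iff]
          exact hne
      · refine ⟨_, rfl, ?_⟩
        refine (Nat.dvd_prime hr).1 (orderOf_dvd_of_pow_eq_one ?_) |>.resolve_left ?_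
        · rw [← QuotientGroup.mk_pow, hA, QuotientGroup.eq_one_iff, hcen]
          exact ⟨c, rfl⟩
        · rw [orderOf_eq_one_iff, QuotientGroup.eq_one_iff, hcen]
          rintro ⟨d, rfl⟩
          rw [← map_pow] at hA
          exact hc d (hσ hA)
  have hdisj : Disjoint X1 X2 := by
    rw [Set.disjoint_left]
    rintro _ ⟨A, ⟨hA, -⟩, rfl⟩ ⟨B, ⟨c, hc, hB⟩, hAB⟩
    obtain ⟨l, hl⟩ := (hq _ _).1 hAB
    have h7 := hpow B A l hl c 1 hB (by rw [hA, map_one])
    rw [mul_one] at h7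
    exact hc l h7.symm
  -- the first kind
  have hcard1 : Nat.card X1 = ((n + r - 1).choose (r - 1) - r - (if r ∣ n then 1 else 0)) / r +
      (if r ∣ n then 1 else 0) := by
    rw [← card_orbits (r := r) hn]
    refine card_eq_of_ker (S := S1) (fun A => (⟨q A.1, A.1, A.2, rfl⟩ : X1))
      (fun A => Quotient.mk'' (mkT (τ A.1) ((h3 _).1 ⟨A.1, A.2.1, rfl⟩)
        (fun c hc => A.2.2 ((hcentral _ A.2.1).2 ⟨c, hc⟩)))) ?_ ?_ ?_
    · rintro ⟨C, A, hA, rfl⟩
      exact ⟨⟨A, hA⟩, rfl⟩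
    · intro a
      induction a using Quotient.inductionOn' with
      | _ a =>
        obtain ⟨A, hA, hAa⟩ := (h3 a.1).2 a.2.1
        refine ⟨⟨A, hA, fun h => ?_⟩, ?_⟩
        · obtain ⟨c, hc⟩ := (hcentral A hA).1 h
          rw [hAa] at hc
          exact a.2.2 c hc
        · exact congrArg Quotient.mk'' (Subtype.ext hAa)
    · rintro ⟨A, hA, hA'⟩ ⟨B, hB, hB'⟩
      rw [Subtype.mk.injEq, hq, Quotient.eq'', MulAction.orbitRel_apply]
      constructor
      · rintro ⟨l, hl⟩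
        have h7 := hpow A B l hl 1 1 (by rw [hA, map_one]) (by rw [hB, map_one])
        rw [mul_one] at h7
        obtain ⟨k, rfl⟩ := htors l h7.symm
        have h8 : (σ (z ^ k) * B) ^ r = 1 := by
          rw [(hcomm _ _).mul_pow, hB, ← map_pow, ← pow_mul, mul_comm, pow_mul, hzr, one_pow, map_one, one_mul]
        refine ⟨Multiplicative.ofAdd (k : ZMod r), Subtype.ext (funext fun c => ?_)⟩
        show τ B (c - k) = τ A c
        rw [(h1 _ _ hA h8).1 hl, hshift B hB]
      · rintro ⟨m, hm⟩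
        refine ⟨z ^ m.toAdd.val, ?_⟩
        have h8 : (σ (z ^ m.toAdd.val) * B) ^ r = 1 := by
          rw [(hcomm _ _).mul_pow, hB, ← map_pow, ← pow_mul, mul_comm, pow_mul, hzr, one_pow, map_one, one_mul]
        rw [h1 _ _ hA h8]
        funext c
        rw [hshift B hB, ZMod.natCast_zmod_val]
        exact (congrFun (congrArg Subtype.val hm) c).symm
  -- the second kind
  have hcard2 : Nat.card X2 = (r - 1) * (if r ∣ n then 1 else 0) := by
    split_ifs with hdvd
    · rw [mul_one]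
      have hidx : Nat.card (L ⧸ (powMonoidHom r : L →* L).range) = r := by
        have := IsCyclic.index_powMonoidHom_range L r
        rw [Nat.gcd_eq_right hrL] at this
        exact this
      have h7 : Nat.card {x : L ⧸ (powMonoidHom r : L →* L).range // x ≠ 1} = r - 1 := by
        have h8 : Nat.card {x : L ⧸ (powMonoidHom r : L →* L).range // x ≠ 1} =
            ({1}ᶜ : Set (L ⧸ (powMonoidHom r : L →* L).range)).ncard := rfl
        rw [h8, Set.ncard_compl, Set.ncard_singleton, hidx]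
      rw [← h7]
      refine card_eq_of_ker (S := {x : G × L // (∀ d : L, d ^ r ≠ x.2) ∧ x.1 ^ r = σ x.2})
        (fun x => (⟨q x.1.1, x.1.1, ⟨x.1.2, x.2⟩, rfl⟩ : X2))
        (fun x => ⟨QuotientGroup.mk x.1.2, fun h => ?_⟩) ?_ ?_ ?_
      · rw [QuotientGroup.eq_one_iff] at h
        obtain ⟨d, hd⟩ := h
        exact x.2.1 d hd
      · rintro ⟨C, A, ⟨c, hc⟩, rfl⟩
        exact ⟨⟨(A, c), hc⟩, rfl⟩
      · rintro ⟨x, hx⟩
        obtain ⟨c, rfl⟩ := QuotientGroup.mk_surjective x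
        obtain ⟨A, hA⟩ := h6 hdvd c
        refine ⟨⟨(A, c), fun d hd => hx ?_, hA⟩, rfl⟩
        rw [QuotientGroup.eq_one_iff]
        exact ⟨d, hd⟩
      · rintro ⟨⟨A, c⟩, hc, hA⟩ ⟨⟨B, c'⟩, hc', hB⟩
        rw [Subtype.mk.injEq, hq, Subtype.mk.injEq]
        show _ ↔ (QuotientGroup.mk c : L ⧸ (powMonoidHom r : L →* L).range) = QuotientGroup.mk c'
        rw [QuotientGroup.eq]
        constructor
        · rintro ⟨l, hl⟩
          have h9 := hpow A B l hl c c' hA hB
          refine ⟨l⁻¹, ?_⟩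
          show l⁻¹ ^ r = c⁻¹ * c'
          rw [h9, inv_pow, mul_inv, inv_mul_cancel_right]
        · rintro ⟨l, hl⟩
          have hl' : l ^ r = c⁻¹ * c' := hl
          refine ⟨l⁻¹, h5 c hc A _ hA ?_⟩
          have hB' : B ^ r = σ c' := hB
          rw [(hcomm _ _).mul_pow, hB', ← map_pow, ← map_mul, inv_pow, hl', mul_inv, inv_inv, mul_assoc,
            inv_mul_cancel, mul_one]
    · rw [mul_zero, Nat.card_eq_zero]
      left
      constructor
      rintro ⟨C, A, ⟨c, hc, hA⟩, -⟩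
      have h7 : (D A) ^ r = c ^ n := by rw [← map_pow, hA, hD]
      have hcop : Nat.gcd r n = 1 := (Nat.Prime.coprime_iff_not_dvd hr).2 hdvd
      have h8 := Nat.gcd_eq_gcd_ab r n
      rw [hcop] at h8
      apply hc (c ^ (Nat.gcdA r n) * (D A) ^ (Nat.gcdB r n))
      rw [mul_pow, ← zpow_natCast, ← zpow_natCast, ← zpow_mul, ← zpow_mul, mul_comm (Nat.gcdB r n), zpow_mul (D A),
        zpow_natCast, h7, ← zpow_natCast, ← zpow_mul, ← zpow_add, mul_comm (Nat.gcdA r n), ← h8]
      simp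
  have hfin : Finite (ConjClasses (G ⧸ Subgroup.center G)) := Quotient.finite _
  have e : {C : ConjClasses (G ⧸ Subgroup.center G) //
      ∃ g : G ⧸ Subgroup.center G, ConjClasses.mk g = C ∧ orderOf g = r} ≃ (X1 ⊕ X2) :=
    (Equiv.setCongr hX).trans (Equiv.Set.union hdisj)
  rw [Nat.card_congr e, Nat.card_sum, hcard1, hcard2]
  have hr1 := hr.two_le
  split_ifs <;> omega

end Cfsg.Agent.H193.ProjCount
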