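import Mathlib
import Cfsg.Agent.H193.ScalarRoots
import Cfsg.Agent.H193.ProjCount
import Cfsg.Agent.H186.Unitary

/-!
# Classes of elements of prime order `r` of `PGL_n(q)` (`r ∣ q - 1`) and `PGU_n(q)` (`r ∣ q + 1`)
-/

set_option autoImplicit false

open Polynomial

namespace Cfsg.Agent.H193.PGLCount

open Cfsg.Agent.H193.Types Cfsg.Agent.H193.ScalarRoots Cfsg.Agent.H193.ProjCount

theorem pgl_count {F : Type*} [Field F] [Fintype F] {q : ℕ} (hF : Fintype.card F = q) {n r : ℕ} (hn : 1 ≤ n)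
    (hr : r.Prime) (hrq : r ∣ q - 1) :
    Nat.card {C : ConjClasses (GL (Fin n) F ⧸ Subgroup.center (GL (Fin n) F)) //
      ∃ g : GL (Fin n) F ⧸ Subgroup.center (GL (Fin n) F), ConjClasses.mk g = C ∧ orderOf g = r} =
      (Nat.choose (n + r - 1) (r - 1) - r - (if r ∣ n then 1 else 0)) / r + r * (if r ∣ n then 1 else 0) := by
  classical
  have : Fact r.Prime := ⟨hr⟩
  have hrL : r ∣ Nat.card Fˣ := by rw [Nat.card_eq_fintype_card, Fintype.card_units, hF]; exact hrq
  obtain ⟨z, hz⟩ := exists_prime_orderOf_dvd_card' r hrL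
  have hz' : IsPrimitiveRoot (z : F) r := by
    rw [IsPrimitiveRoot.coe_units_iff, ← hz]
    exact IsPrimitiveRoot.orderOf z
  have hζ : IsPrimitiveRoot (algebraMap F (AlgebraicClosure F) (z : F)) r :=
    hz'.map_of_injective (algebraMap F (AlgebraicClosure F)).injective
  have hsc : ∀ c : Fˣ, ((Matrix.GeneralLinearGroup.scalar (Fin n) c : GL (Fin n) F) : Matrix (Fin n) (Fin n) F) =
      (c : F) • (1 : Matrix (Fin n) (Fin n) F) := fun c => by
    rw [← Matrix.diagonal_one, ← Matrix.diagonal_smul]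
    show Matrix.diagonal _ = _
    congr 1
    funext i
    simp
  refine proj_count (Matrix.GeneralLinearGroup.scalar (Fin n)) (fun x y h => ?_)
    Matrix.GeneralLinearGroup.center_eq_range_scalar hn hrL z hz
    (fun A c => ty (algebraMap F (AlgebraicClosure F) (z : F)) (A : Matrix (Fin n) (Fin n) F) c)
    (fun A B hA hB => isConj_iff_ty hζ hA hB) (fun A hA c => ?_) (fun a => ?_) ?_ (fun c hc A B hA hB => ?_)
    (fun hdvd c => ?_) Matrix.GeneralLinearGroup.det (fun c => ?_)
  · have h1 := congrArg (fun M : GL (Fin n) F => (M : Matrix (Fin n) (Fin n) F) ⟨0, hn⟩ ⟨0, hn⟩) h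
    simp only [hsc] at h1
    exact Units.ext (by simpa using h1)
  · rw [Units.val_mul, hsc, smul_mul_assoc, one_mul]
    exact ty_smul hz' hA c
  · constructor
    · rintro ⟨A, hA, rfl⟩
      have hA' : (A : Matrix (Fin n) (Fin n) F) ^ r = 1 := by rw [← Units.val_pow_eq_pow_val, hA, Units.val_one]
      have := sum_ty hζ hA'
      rwa [Fintype.card_fin] at this
    · intro ha
      obtain ⟨c, hc⟩ := exists_of_tuple (E := AlgebraicClosure F) hz' a ha
      have hD : (Matrix.diagonal (fun i => (z : F) ^ (c i).val) : Matrix (Fin n) (Fin n) F) ^ r = 1 := by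
        rw [Matrix.diagonal_pow]
        have : (fun i => (z : F) ^ (c i).val) ^ r = fun _ => (1 : F) := by
          funext i
          rw [Pi.pow_apply, ← pow_mul, mul_comm, pow_mul, hz'.pow_eq_one, one_pow]
        rw [this, Matrix.diagonal_one]
      have hu : IsUnit (Matrix.diagonal (fun i => (z : F) ^ (c i).val) : Matrix (Fin n) (Fin n) F) :=
        IsUnit.of_pow_eq_one hD (NeZero.ne r)
      exact ⟨hu.unit, Units.ext (by rw [Units.val_pow_eq_pow_val, IsUnit.unit_spec, hD, Units.val_one]),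
        funext fun d => hc d⟩
  · have h1 := ty_diag (E := AlgebraicClosure F) hz' (fun _ : Fin n => (0 : ZMod r)) 0
    have h2 : (Matrix.diagonal fun _ : Fin n => (z : F) ^ (0 : ZMod r).val) = (1 : Matrix (Fin n) (Fin n) F) := by
      rw [ZMod.val_zero, pow_zero, Matrix.diagonal_one]
    rw [h2] at h1
    show ty (algebraMap F (AlgebraicClosure F) (z : F)) ((1 : GL (Fin n) F) : Matrix (Fin n) (Fin n) F) 0 = n
    rw [Units.val_one, h1]
    simp
  · refine isConj_of_pow_eq hr (c := (c : F)) (fun d hd => ?_) A B ?_ ?_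
    · have hd0 : d ≠ 0 := by
        rintro rfl
        rw [zero_pow hr.ne_zero] at hd
        exact c.ne_zero hd.symm
      exact hc (Units.mk0 d hd0) (Units.ext (by rw [Units.val_pow_eq_pow_val]; exact hd))
    · rw [← Units.val_pow_eq_pow_val, hA, hsc]
    · rw [← Units.val_pow_eq_pow_val, hB, hsc]
  · obtain ⟨τ, d, hd, hM⟩ := exists_monomial hr.one_le hdvd (c : F)
    obtain ⟨M, hM'⟩ : ∃ M, M = Matrix.diagonal d * τ.permMatrix F := ⟨_, rfl⟩
    rw [← hM'] at hM
    have hu : IsUnit M := by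
      have h1 : IsUnit (M ^ r) := by
        rw [hM, ← hsc]
        exact Units.isUnit _
      exact (isUnit_pow_iff hr.ne_zero).1 h1
    exact ⟨hu.unit, Units.ext (by rw [Units.val_pow_eq_pow_val, IsUnit.unit_spec, hM, hsc])⟩
  · rw [Matrix.GeneralLinearGroup.det_scalar, Fintype.card_fin]

open Cfsg.Agent.ClassicalGeometry.GUBasic in
theorem pgu_count {K : Type*} [Field K] [Fintype K] {q n r : ℕ} (hK : Fintype.card K = q ^ 2) (hn : 1 ≤ n)
    (hr : r.Prime) (hr2 : r ≠ 2) (hrq : r ∣ q + 1) :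
    Nat.card {C : ConjClasses (↥(Cfsg.GU n K q) ⧸ Subgroup.center ↥(Cfsg.GU n K q)) //
      ∃ g : ↥(Cfsg.GU n K q) ⧸ Subgroup.center ↥(Cfsg.GU n K q), ConjClasses.mk g = C ∧ orderOf g = r} =
      (Nat.choose (n + r - 1) (r - 1) - r - (if r ∣ n then 1 else 0)) / r + r * (if r ∣ n then 1 else 0) := by
  classical
  have : Fact r.Prime := ⟨hr⟩
  have hcardL : Nat.card (rootsOfUnity (q + 1) K) = q + 1 := card_rootsOfUnity_eq hK
  have hrL : r ∣ Nat.card (rootsOfUnity (q + 1) K) := by rw [hcardL]; exact hrq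
  obtain ⟨z, hz⟩ := exists_prime_orderOf_dvd_card' r hrL
  have hpow : ∀ x : rootsOfUnity (q + 1) K, ((x : Kˣ) : K) ^ (q + 1) = 1 := fun x => by
    rw [← Units.val_pow_eq_pow_val, (mem_rootsOfUnity _ _).1 x.2, Units.val_one]
  have hz' : IsPrimitiveRoot ((z : Kˣ) : K) r := by
    rw [IsPrimitiveRoot.coe_units_iff, ← hz, ← Subgroup.orderOf_coe]
    exact IsPrimitiveRoot.orderOf _
  have hζ : IsPrimitiveRoot (algebraMap K (AlgebraicClosure K) ((z : Kˣ) : K)) r :=
    hz'.map_of_injective (algebraMap K (AlgebraicClosure K)).injective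
  let σ : rootsOfUnity (q + 1) K →* Cfsg.GU n K q :=
    { toFun := fun x => guDiag q (fun _ => ((x : Kˣ) : K)) (fun _ => hpow x)
      map_one' := gu_ext (by rw [coe_guDiag]; simp)
      map_mul' := fun x y => gu_ext (by
        show Matrix.diagonal _ = Matrix.diagonal _ * Matrix.diagonal _
        rw [Matrix.diagonal_mul_diagonal]
        simp) }
  have hsc : ∀ c, ((σ c : GL (Fin n) K) : Matrix (Fin n) (Fin n) K) =
      ((c : Kˣ) : K) • (1 : Matrix (Fin n) (Fin n) K) := fun c => by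
    rw [← Matrix.diagonal_one, ← Matrix.diagonal_smul]
    show Matrix.diagonal _ = _
    congr 1
    funext i
    simp
  have hcoe : ∀ A : Cfsg.GU n K q, A ^ r = 1 → (A : GL (Fin n) K) ^ r = 1 := fun A hA => by
    rw [← Subgroup.coe_pow, hA]; rfl
  refine proj_count σ (fun x y h => ?_) ?_ hn hrL z hz
    (fun A c => ty (algebraMap K (AlgebraicClosure K) ((z : Kˣ) : K)) ((A : GL (Fin n) K) : Matrix (Fin n) (Fin n) K) c)
    (fun A B hA hB => ?_) (fun A hA c => ?_) (fun a => ?_) ?_ (fun c hc A B hA hB => ?_)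
    (fun hdvd c => ?_) (detHom n hK) (fun c => ?_)
  · have h1 := congrArg (fun M : Cfsg.GU n K q => ((M : GL (Fin n) K) : Matrix (Fin n) (Fin n) K) ⟨0, hn⟩ ⟨0, hn⟩) h
    simp only [hsc] at h1
    exact Subtype.ext (Units.ext (by simpa using h1))
  · ext A
    rw [mem_center_GU_iff hK hn, MonoidHom.mem_range]
    constructor
    · rintro ⟨c, hc, rfl⟩
      have hc0 : c ≠ 0 := by
        rintro rfl
        rw [zero_pow (Nat.succ_ne_zero q)] at hc
        exact zero_ne_one hc
      exact ⟨⟨Units.mk0 c hc0, (mem_rootsOfUnity _ _).2 (Units.ext (by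
        rw [Units.val_pow_eq_pow_val]; exact hc))⟩, rfl⟩
    · rintro ⟨c, rfl⟩
      exact ⟨_, hpow c, rfl⟩
  · rw [Cfsg.Agent.H186.gu_isConj_iff hK]
    exact isConj_iff_ty hζ (hcoe A hA) (hcoe B hB)
  · show ty _ (((σ z : GL (Fin n) K) : Matrix (Fin n) (Fin n) K) * ((A : GL (Fin n) K) : Matrix (Fin n) (Fin n) K)) c = _
    rw [hsc, smul_mul_assoc, one_mul]
    exact ty_smul hz' (hcoe A hA) c
  · constructor
    · rintro ⟨A, hA, rfl⟩
      have hA' : ((A : GL (Fin n) K) : Matrix (Fin n) (Fin n) K) ^ r = 1 := by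
        rw [← Units.val_pow_eq_pow_val, hcoe A hA, Units.val_one]
      have := sum_ty hζ hA'
      rwa [Fintype.card_fin] at this
    · intro ha
      obtain ⟨c, hc⟩ := exists_of_tuple (E := AlgebraicClosure K) hz' a ha
      refine ⟨guDiag q (fun i => ((z : Kˣ) : K) ^ (c i).val) (fun i => ?_), gu_ext ?_, funext fun d => ?_⟩
      · rw [← pow_mul, mul_comm, pow_mul, hpow, one_pow]
      · show (Matrix.diagonal (fun i => ((z : Kˣ) : K) ^ (c i).val) : Matrix (Fin n) (Fin n) K) ^ r = 1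
        rw [Matrix.diagonal_pow]
        have : (fun i => ((z : Kˣ) : K) ^ (c i).val) ^ r = fun _ => (1 : K) := by
          funext i
          rw [Pi.pow_apply, ← pow_mul, mul_comm, pow_mul, hz'.pow_eq_one, one_pow]
        rw [this, Matrix.diagonal_one]
      · exact hc d
  · have h1 := ty_diag (E := AlgebraicClosure K) hz' (fun _ : Fin n => (0 : ZMod r)) 0
    have h2 : (Matrix.diagonal fun _ : Fin n => ((z : Kˣ) : K) ^ (0 : ZMod r).val) = (1 : Matrix (Fin n) (Fin n) K) := by
      rw [ZMod.val_zero, pow_zero, Matrix.diagonal_one]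
    rw [h2] at h1
    show ty (algebraMap K (AlgebraicClosure K) ((z : Kˣ) : K)) (1 : Matrix (Fin n) (Fin n) K) 0 = n
    rw [h1]
    simp
  · rw [Cfsg.Agent.H186.gu_isConj_iff hK]
    refine isConj_of_pow_eq hr (c := ((c : Kˣ) : K)) (fun d hd => ?_) _ _ ?_ ?_
    · have hd0 : d ≠ 0 := by
        rintro rfl
        rw [zero_pow hr.ne_zero] at hd
        exact (c : Kˣ).ne_zero hd.symm
      -- `d` has norm one
      have h1 : (Units.mk0 d hd0) ^ (r * (q + 1)) = 1 := Units.ext (by
        rw [Units.val_pow_eq_pow_val, Units.val_mk0, pow_mul, hd, hpow, Units.val_one])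
      have h2 : (Units.mk0 d hd0) ^ ((q - 1) * (q + 1)) = 1 := by
        have h3 : (Units.mk0 d hd0) ^ Fintype.card Kˣ = 1 := pow_card_eq_one
        rw [Fintype.card_units, hK] at h3
        rw [← h3]
        congr 1
        obtain ⟨s, rfl⟩ : ∃ s, q = s + 1 := ⟨q - 1, by have := two_le hK; omega⟩
        rw [Nat.add_sub_cancel]
        have : (s + 1) ^ 2 = s * (s + 1 + 1) + 1 := by ring
        omega
      have hcop : Nat.Coprime r (q - 1) := by
        rw [Nat.Prime.coprime_iff_not_dvd hr]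
        intro h
        have h4 : r ∣ (q + 1) - (q - 1) := Nat.dvd_sub hrq h
        have h5 : (q + 1) - (q - 1) = 2 := by have := two_le hK; omega
        rw [h5] at h4
        exact hr2 ((Nat.prime_dvd_prime_iff_eq hr Nat.prime_two).1 h4)
      have h3 : (Units.mk0 d hd0) ^ (q + 1) = 1 := by
        have h4 := pow_gcd_eq_one.2 ⟨h1, h2⟩
        rwa [Nat.gcd_mul_right, hcop, one_mul] at h4
      exact hc ⟨Units.mk0 d hd0, (mem_rootsOfUnity _ _).2 h3⟩ (Subtype.ext (Units.ext (by
        rw [Subgroup.coe_pow, Units.val_pow_eq_pow_val]; exact hd)))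
    · rw [← hsc, ← hA]; rfl
    · rw [← hsc, ← hB]; rfl
  · obtain ⟨τ, d, hd, hM⟩ := exists_monomial hr.one_le hdvd ((c : Kˣ) : K)
    refine ⟨guDiag q d (fun i => ?_) * guPerm q τ, gu_ext ?_⟩
    · rcases hd i with h | h
      · rw [h, one_pow]
      · rw [h, hpow]
    · rw [hsc]
      exact hM
  · apply Subtype.ext
    apply Units.ext
    show ((detHom n hK (guDiag q (fun _ => ((c : Kˣ) : K)) (fun _ => hpow c)) : Kˣ) : K) = _
    rw [detHom_guDiag, Finset.prod_const, Finset.card_univ, Fintype.card_fin]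
    rfl

end Cfsg.Agent.H193.PGLCount
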